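import Mathlib
import Cfsg.Agent.Lib.Helper23.OHyp.Asm
import Cfsg.Agent.Lib.Helper70.OPar.Defs

/-!
# OPAR [NEG]: a fixed member for every element forces the numerical conditions.
-/

set_option autoImplicit false
open scoped MatrixGroups
open Matrix

namespace Cfsg.Agent.Lib.Helper96.OPar

open Cfsg.Agent.Lib.Helper23.OHyp Cfsg.Agent.Lib.Helper70.OPar

universe u

/-- `r ∤ |F|` gives `(r : F) ≠ 0`. -/
theorem natCast_ne_zero_of_not_dvd_card {F : Type u} [Field F] [Fintype F] {r : ℕ}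
    (hr : r.Prime) (hrq : ¬ r ∣ Fintype.card F) : (r : F) ≠ 0 := by
  intro h
  obtain ⟨p, hp⟩ := CharP.exists F
  obtain ⟨k, hpp, hk⟩ := FiniteField.card F p
  rw [CharP.cast_eq_zero_iff F p] at h
  have hpr : p = r := (Nat.prime_dvd_prime_iff_eq hpp hr).mp h
  apply hrq
  rw [hk, hpr]
  exact dvd_pow_self r k.ne_zero

/-- The core: for an isometry `y` of order `r` (odd prime, prime to `q`), the fixed member of
`Fix` has dimension `a + c j'` with `a ≤ dim fixSp y`. -/
theorem neg_core (hS : PkgScal.{u}) (hSp : PkgSplit.{u}) (hD : PkgDiv.{u})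
    (hO : PkgOddOmega.{u})
    {F : Type u} [Field F] [Fintype F] {ι : Type} [Fintype ι] [DecidableEq ι] [Nonempty ι]
    (Q : (ι → F) → F) (hQ : Cfsg.Geo.IsNondegenerateQuadraticForm Q) (h2 : (2 : F) ≠ 0)
    (r : ℕ) (hr : r.Prime) (hr2 : r ≠ 2) (hrq : ¬ r ∣ Fintype.card F)
    (W₀ : Submodule F (ι → F)) (m : ℕ) (hFix : Fix Q W₀ m r)
    (y : GL ι F) (hy : y ∈ Cfsg.isometryGroup F Q) (hyr : orderOf y = r) :
    ∃ a j' : ℕ, a ≤ Module.finrank F (fixSp (y : Matrix ι ι F)) ∧
      m = a + cc (Fintype.card F) r * j' := by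
  have hrodd : Odd r := hr.odd_of_ne_two hr2
  have hyΩ := hO F ι Q hQ h2 y hy (by rw [hyr]; exact hrodd)
  have hpowG : y ^ r = 1 := by rw [← hyr]; exact pow_orderOf_eq_one y
  have hpow : (y : Matrix ι ι F) ^ r = 1 := by
    rw [← Units.val_pow_eq_pow_val, hpowG]; rfl
  have hisom := isom_of_mem hy
  have hns : ∀ z : F, (y : Matrix ι ι F) ≠ z • (1 : Matrix ι ι F) := by
    intro z hz
    have hzz : z * z = 1 := hS F ι Q hQ z (by intro v; rw [← hz]; exact hisom v)
    have hzr : z ^ r = 1 := by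
      have h1 := hpow
      rw [hz, smul_pow, one_pow] at h1
      obtain ⟨i0⟩ := (inferInstance : Nonempty ι)
      have h3 := congrFun (congrFun h1 i0) i0
      simpa using h3
    obtain ⟨t, ht⟩ := hrodd
    have hz1 : z = 1 := by
      have h4 : z ^ (2 * t + 1) = z := by
        rw [pow_succ, pow_mul, pow_two, hzz, one_pow, one_mul]
      rw [ht, h4] at hzr
      exact hzr
    rw [hz1, one_smul] at hz
    have hy1 : y = 1 := Units.ext hz
    rw [hy1, orderOf_one] at hyr
    exact hr.one_lt.ne hyr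
  obtain ⟨W, ⟨hWdim, hWnd, -⟩, hWinv⟩ := hFix y hyΩ
    ⟨1, by rw [Units.val_pow_eq_pow_val, hpow, one_smul]⟩ hns
  have hStd : Std Q r (y : Matrix ι ι F) :=
    ⟨hQ, h2, hr, hr2, hrq, natCast_ne_zero_of_not_dvd_card hr hrq, hpow, hisom⟩
  obtain ⟨-, -, -, -, -, hWs⟩ := hSp F ι Q r (y : Matrix ι ι F) hStd
  obtain ⟨-, hW1nd, hW1inv, -, hdims⟩ := hWs W hWinv hWnd
  obtain ⟨⟨j', hj'⟩, -⟩ := hD F ι Q r (y : Matrix ι ι F) hStd
    (W ⊓ movSp (y : Matrix ι ι F)) inf_le_right hW1inv hW1nd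
  refine ⟨Module.finrank F ↥(W ⊓ fixSp (y : Matrix ι ι F)), j',
    Submodule.finrank_mono inf_le_right, ?_⟩
  rw [← hWdim, hdims, hj']

theorem pkgNeg_of (hS : PkgScal.{u}) (hSp : PkgSplit.{u}) (hD : PkgDiv.{u})
    (hO : PkgOddOmega.{u}) (hE : PkgExeK.{u}) (hC : PkgCntPar.{u}) : PkgNeg.{u} := by
  intro F _ _ ι _ _ Q hQ h2 r hr hr2 hrq W₀ m hm hmn hn hW0 hNd hE0 hdvd hFix
  have hcpos : 0 < cc (Fintype.card F) r := cc_pos (ordI_pos hr hrq)
  obtain ⟨c', hc'⟩ := cc_even (Fintype.card F) r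
  have : Nonempty ι := Fintype.card_pos_iff.mp (by omega)
  obtain ⟨t, ht⟩ := hm
  by_cases hk : Fintype.card ι % cc (Fintype.card F) r = 0
  · by_cases htype : (Plus Q ⊤ ↔ (Odd (ordI (Fintype.card F) r) ∨
        Even (Fintype.card ι / ordI (Fintype.card F) r)))
    · exfalso
      obtain ⟨y, hy, hyr, hy0⟩ := hE0 hk htype
      obtain ⟨a, j', ha, hmeq⟩ := neg_core hS hSp hD hO Q hQ h2 r hr hr2 hrq W₀ m hFix y hy hyr
      have h1 : cc (Fintype.card F) r * j' = 2 * (c' * j') := by rw [hc']; ring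
      omega
    · right; exact ⟨hk, htype⟩
  · left
    have hkeven : Even (Fintype.card ι % cc (Fintype.card F) r) := mod_cc_even hn
    obtain ⟨s, hs⟩ := hkeven
    by_cases hlt : m % cc (Fintype.card F) r < Fintype.card ι % cc (Fintype.card F) r
    · refine ⟨?_, hlt⟩
      by_contra hcm
      push Not at hcm
      have hmm : m % cc (Fintype.card F) r = m := Nat.mod_eq_of_lt hcm
      rw [hmm] at hlt
      exact hC F ι Q hQ h2 hn r hr hr2 hrq W₀ m (by omega) hW0 hNd hcm hlt hdvd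
    · exfalso
      push Not at hlt
      have hcn : cc (Fintype.card F) r ≤ Fintype.card ι := by
        by_contra h
        push Not at h
        have h1 : Fintype.card ι % cc (Fintype.card F) r = Fintype.card ι := Nat.mod_eq_of_lt h
        have h3 : m % cc (Fintype.card F) r = m := Nat.mod_eq_of_lt (by omega)
        omega
      have hJ : 1 ≤ Fintype.card ι / cc (Fintype.card F) r := Nat.div_pos hcn hcpos
      have hdm := Nat.div_add_mod (Fintype.card ι) (cc (Fintype.card F) r)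
      obtain ⟨y, hy, hyr, hyfix⟩ := hE F ι Q hQ h2 hn r hr hr2 hrq
        (Fintype.card ι / cc (Fintype.card F) r) hJ (by omega)
      obtain ⟨a, j', ha, hmeq⟩ := neg_core hS hSp hD hO Q hQ h2 r hr hr2 hrq W₀ m hFix y hy hyr
      have hklt : Fintype.card ι % cc (Fintype.card F) r < cc (Fintype.card F) r :=
        Nat.mod_lt _ hcpos
      have hmod : m % cc (Fintype.card F) r = a := by
        rw [hmeq, Nat.add_mul_mod_self_left, Nat.mod_eq_of_lt (by omega)]
      have h1 : cc (Fintype.card F) r * j' = 2 * (c' * j') := by rw [hc']; ring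
      omega

end Cfsg.Agent.Lib.Helper96.OPar
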